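-- Final assembly of the certificate M11A.
import Cfsg.Agent.Lib.Compute.TC.M11A.Keys0
import Cfsg.Agent.Lib.Compute.TC.M11A.Rel0
import Cfsg.Agent.Lib.Compute.TC.M11A.Fin
import Cfsg.Agent.Lib.Compute.TC.M11A.Orb
set_option autoImplicit false
set_option maxRecDepth 1000000

open Cfsg.Agent.Lib.Compute.ToddCoxeterCore Cfsg.Agent.Lib.Compute.ToddCoxeterPresented Cfsg.Agent.Lib.Compute.TCFast

namespace Cfsg.Agent.Lib.Compute.TC.M11A

theorem rulesChk : rulesOK cfg.L cfg.inv relsL rT = true := by decide +kernel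

theorem small : Small D cfg where
  hL := by decide +kernel
  hLp := by decide +kernel
  hnd := by decide +kernel
  hinvL := by decide +kernel
  hinvP := by decide +kernel
  hinv2 := by decide +kernel
  hinvol := by decide +kernel
  hrels1 := by decide +kernel
  hrels2 := by decide +kernel
  hhw := by decide +kernel
  hN := by decide +kernel

theorem w0Chk : ∀ w ∈ D.hw, cfg.walk maxS w 0 (Nat.beq 0) = true := by decide +kernel

theorem keysFull : ∀ k, k < cfg.M → cfg.chkKey k = true := fun k hk =>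
  (allFrom_chain (allFrom_nil cfg.chkKey (nat_lit 0)) keys0 (c := 104) rfl) k (Nat.zero_le k) hk

theorem relLt : ∀ a ∈ relsL, ∀ x ∈ a, x < cfg.L := by decide +kernel

theorem relFast : ∀ k, k < cfg.N → chkRelF cfg relsL k = true := fun k hk =>
  (allFrom_chain (allFrom_nil (chkRelF cfg relsL) (nat_lit 0)) rel0 (c := 11) rfl) k (Nat.zero_le k) hk

theorem finFull : ∀ i, i < cfg.N → cfg.chkFin (List.range cfg.L) i = true := fun i hi =>
  allFrom_all finAll rfl i (Nat.zero_le i) hi

theorem relFull : ∀ k, k < cfg.N → cfg.chkRel relsL k = true := fun k hk =>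
  chkRel_of_fast finFull relLt hk (relFast k hk)

theorem big : Big D cfg where
  hwords := fun _ => rfl
  hrules := fun r => rulesOK_spec rulesChk r
  hw0 := w0Chk
  hkeys := keysFull
  hlbl := fun j hj hj' => allFrom_all lblAll rfl j (Nat.pos_of_ne_zero hj) hj'
  hfin := finFull
  hq := fun i hi hi' => allFrom_all qAll rfl i (Nat.pos_of_ne_zero hi) hi'
  hrel := relFull

theorem hgens : ∀ a, (a, true) ∈ D.lets := by intro a; fin_cases a <;> decide

/-- the relators as a set -/
abbrev RR : Set (FreeGroup (Fin 2)) := {r | r ∈ Cfsg.Agent.Lib.Compute.TC.M11Rel.rsP}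

theorem hR : ∀ r, r ∈ RR ↔ r ∈ D.rs := fun _ => Iff.rfl

/-- The index of the subgroup. -/
theorem index : (HOf RR D.Hs).index = 11 :=
  index_eq hR small big hgens

/-- The orbits of the subgroup. -/
theorem orbits : ∃ q : ℕ → (PresentedGroup RR ⧸ HOf RR D.Hs),
    (∀ d, oc.rep d < cfg.N → oc.oid (oc.rep d) = d →
      (MulAction.orbit (HOf RR D.Hs) (q d)).ncard =
        ((Finset.range cfg.N).filter (fun j => oc.oid j = d)).card) ∧
    (∀ d d', oc.rep d < cfg.N → oc.oid (oc.rep d) = d → oc.rep d' < cfg.N → oc.oid (oc.rep d') = d' → d ≠ d' →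
      MulAction.orbit (HOf RR D.Hs) (q d) ≠ MulAction.orbit (HOf RR D.Hs) (q d')) :=
  orbits_main hR small big hgens oc
    (fun j hj => allFrom_all orbI rfl j (Nat.zero_le j) hj)
    (fun j hj => allFrom_all orbT rfl j (Nat.zero_le j) hj)

theorem repsOK : ∀ d, d < 2 → oc.rep d < cfg.N ∧ oc.oid (oc.rep d) = d := by decide +kernel

/-- The orbits of the subgroup, with their sizes. -/
theorem orbitsAll : ∃ q : ℕ → (PresentedGroup RR ⧸ HOf RR D.Hs),
    ((MulAction.orbit (HOf RR D.Hs) (q 0)).ncard = 1 ∧ (MulAction.orbit (HOf RR D.Hs) (q 1)).ncard = 10) ∧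
    ∀ d d', d < 2 → d' < 2 → d ≠ d' →
      MulAction.orbit (HOf RR D.Hs) (q d) ≠ MulAction.orbit (HOf RR D.Hs) (q d') := by
  obtain ⟨q, h1, h2⟩ := orbits
  refine ⟨q, ⟨(h1 _ (repsOK 0 (by decide)).1 (repsOK 0 (by decide)).2).trans (count_eq orbC0), (h1 _ (repsOK 1 (by decide)).1 (repsOK 1 (by decide)).2).trans (count_eq orbC1)⟩, ?_⟩
  intro d d' hd hd' hne
  exact h2 d d' (repsOK d hd).1 (repsOK d hd).2 (repsOK d' hd').1 (repsOK d' hd').2 hne

end Cfsg.Agent.Lib.Compute.TC.M11A
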